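import Mathlib
import Cfsg.Agent.Lib.Helper70.HH.S3789Defs
import Cfsg.Agent.Lib.Helper32.PL1Frat
import Cfsg.Agent.Lib.Helper63.FrattiniAction
import Cfsg.Agent.Lib.Helper69.PSolvable

/-!
# S3789, package (P10) `LemKey` (helper50)

If `O_{p'}(G) = 1`, `G` is `p`-soluble, `p` is odd and a Sylow `p`-subgroup `P` has derived length
at most `d + 1`, then `P^{(d)} ≤ O_p(G)`; proved from the package `LemMod` (Theorem M over a
field of characteristic `p`), applied to the action of `G / O_p(G)` on the Frattini quotient of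
`O_p(G)`.

* `hh89_pCore_quot_eq_bot`: `O_p(G / O_p(G)) = 1`.
* `hh89_comm_le`: the module-theoretic step for a normal `p`-subgroup `R` on whose Frattini
  quotient `G / R` acts faithfully.
* `lemKey`: the package.
-/

set_option autoImplicit false

namespace Cfsg.Agent.Lib.Helper50.HH89

open Cfsg Cfsg.Agent.Lib.Helper70.HH89
open scoped commutatorElement

universe u

theorem hh89_pCore_quot_eq_bot {G : Type*} [Group G] (p : ℕ) (Q : Subgroup G) [Q.Normal]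
    (hQ : Q = Cfsg.pCore p G) : Cfsg.pCore p (G ⧸ Q) = ⊥ := by
  have hN : IsPGroup p (Cfsg.pCore p (G ⧸ Q)) := Cfsg.Agent.Lib.Helper63.pCore_isPGroup' p _
  have hP : IsPGroup p Q := by rw [hQ]; exact Cfsg.Agent.Lib.Helper63.pCore_isPGroup' p G
  obtain ⟨C, hC⟩ : ∃ C : Subgroup G, C = (Cfsg.pCore p (G ⧸ Q)).comap (QuotientGroup.mk' Q) :=
    ⟨_, rfl⟩
  have hCn : C.Normal := by rw [hC]; infer_instance
  have hCmem : ∀ g : G, g ∈ C ↔ (QuotientGroup.mk g : G ⧸ Q) ∈ Cfsg.pCore p (G ⧸ Q) := by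
    intro g; rw [hC]; rfl
  have hCp : IsPGroup p C := by
    rintro ⟨g, hg⟩
    obtain ⟨k, hk⟩ := hN ⟨QuotientGroup.mk g, (hCmem g).1 hg⟩
    have h1 : g ^ p ^ k ∈ Q := by
      rw [← QuotientGroup.eq_one_iff]
      have := congrArg Subtype.val hk
      simpa using this
    obtain ⟨j, hj⟩ := hP ⟨g ^ p ^ k, h1⟩
    refine ⟨k + j, Subtype.ext ?_⟩
    have h2 := congrArg Subtype.val hj
    simp only [Subgroup.coe_pow, Subgroup.coe_one] at h2 ⊢
    rw [pow_add, pow_mul]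
    exact h2
  have hle : C ≤ Q := by rw [hQ]; exact le_sSup ⟨hCn, hCp⟩
  rw [eq_bot_iff]
  intro x hx
  obtain ⟨g, rfl⟩ := QuotientGroup.mk_surjective x
  rw [Subgroup.mem_bot]
  exact (QuotientGroup.eq_one_iff g).2 (hle ((hCmem g).2 hx))

/-- The module step: `R` a normal `p`-subgroup of `G` such that `G / R` is `p`-soluble with
`O_p(G / R) = 1` and acts faithfully on `R / Φ(R)`; `B` a `p`-subgroup with `[B, R] ≤ B`,
`[[B, B], R] ≤ [B, B]` and `[B, B]` abelian.  Then `[B, B] ≤ R`. -/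
theorem hh89_comm_le (hM : LemMod.{u, u, 0}) {p : ℕ} [Fact p.Prime] {G : Type u} [Group G]
    [Finite G] (hp2 : p ≠ 2) (R : Subgroup G) [hRn : R.Normal] (hRp : IsPGroup p R)
    (hsol : Cfsg.IsPSolvable p (G ⧸ R)) (hcore : Cfsg.pCore p (G ⧸ R) = ⊥)
    (hfaith : ∀ g : G, (∀ k ∈ R, g * k * g⁻¹ * k⁻¹ ∈ (frattini ↥R).map R.subtype) → g ∈ R)
    (B : Subgroup G) (hB : IsPGroup p B)
    (hBR : ∀ b ∈ B, ∀ r ∈ R, b * r * b⁻¹ * r⁻¹ ∈ B)
    (hAR : ∀ a ∈ ⁅B, B⁆, ∀ r ∈ R, a * r * a⁻¹ * r⁻¹ ∈ ⁅B, B⁆)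
    (hAab : ∀ a ∈ ⁅B, B⁆, ∀ a' ∈ ⁅B, B⁆, a * a' = a' * a) :
    ⁅B, B⁆ ≤ R := by
  classical
  have hp : p.Prime := Fact.out
  have hne : NeZero p := ⟨hp.ne_zero⟩
  letI cg : CommGroup (↥R ⧸ frattini ↥R) := Cfsg.Agent.Lib.Helper32.fratCommGroup hRp
  have hexpV : ∀ v : Additive (↥R ⧸ frattini ↥R), p • v = 0 := by
    intro v
    show Additive.ofMul ((Additive.toMul v) ^ p) = 0
    rw [Cfsg.Agent.Lib.Helper32.frat_pow hRp]
    rfl
  letI hmod : Module (ZMod p) (Additive (↥R ⧸ frattini ↥R)) :=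
    AddCommGroup.zmodModule (n := p) hexpV
  let act : G →* MulAut (↥R ⧸ frattini ↥R) :=
    (Cfsg.Agent.Lib.Helper50.fr_autQuot (frattini ↥R)).comp (MulAut.conjNormal (H := R))
  let ρ₀ : G →* Module.End (ZMod p) (Additive (↥R ⧸ frattini ↥R)) :=
    (Cfsg.Agent.Lib.Helper32.mulAutToEnd p (↥R ⧸ frattini ↥R)).comp act
  have hρ₀mk : ∀ (g : G) (r : ↥R), ρ₀ g (Additive.ofMul (QuotientGroup.mk r)) =
      Additive.ofMul (QuotientGroup.mk (MulAut.conjNormal g r)) := fun _ _ => rfl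
  have hρ₀one : ∀ g : G, (∀ k ∈ R, g * k * g⁻¹ * k⁻¹ ∈ (frattini ↥R).map R.subtype) ↔
      ρ₀ g = 1 := by
    intro g
    rw [← Cfsg.Agent.Lib.Helper50.fr_mem_ker_iff]
    constructor
    · intro h
      show Cfsg.Agent.Lib.Helper32.mulAutToEnd p (↥R ⧸ frattini ↥R) (act g) = 1
      have h' : act g = 1 := h
      rw [h', map_one]
    · intro h
      exact Cfsg.Agent.Lib.Helper32.mulAutToEnd_eq_one p _ _ h
  have hR1 : ∀ r ∈ R, ρ₀ r = 1 := by
    intro r hr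
    rw [← hρ₀one]
    intro k hk
    have h1 := Cfsg.Agent.Lib.Helper87.comm_mem_frattini hRp (⟨r, hr⟩ : ↥R) ⟨k, hk⟩
    have h2 := Subgroup.mem_map_of_mem R.subtype h1
    exact h2
  -- the commutator formula
  have hstep : ∀ (g : G) (r : ↥R), ∃ c : ↥R, (c : G) = g * (r : G) * g⁻¹ * (r : G)⁻¹ ∧
      (ρ₀ g - 1) (Additive.ofMul (QuotientGroup.mk r)) = Additive.ofMul (QuotientGroup.mk c) := by
    intro g r
    refine ⟨⟨g * (r : G) * g⁻¹ * (r : G)⁻¹, R.mul_mem (hRn.conj_mem r r.2 g) (R.inv_mem r.2)⟩,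
      rfl, ?_⟩
    rw [LinearMap.sub_apply, hρ₀mk, sub_eq_iff_eq_add]
    have h1 : MulAut.conjNormal g r =
        (⟨g * (r : G) * g⁻¹ * (r : G)⁻¹, R.mul_mem (hRn.conj_mem r r.2 g) (R.inv_mem r.2)⟩ : ↥R)
          * r := by
      apply Subtype.ext
      rw [Subgroup.coe_mul, MulAut.conjNormal_apply]
      group
    rw [h1]
    rfl
  have hzero : ∀ c : ↥R, (c : G) = 1 →
      Additive.ofMul (QuotientGroup.mk c : ↥R ⧸ frattini ↥R) = 0 := by
    intro c hc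
    have h1 : c = 1 := Subtype.ext hc
    rw [h1]
    rfl
  have hsurj : ∀ v : Additive (↥R ⧸ frattini ↥R), ∃ r : ↥R,
      v = Additive.ofMul (QuotientGroup.mk r) := by
    intro v
    obtain ⟨r, hr⟩ := QuotientGroup.mk_surjective (Additive.toMul v)
    exact ⟨r, by rw [hr]; rfl⟩
  -- the representation of the quotient
  have hker : R ≤ ρ₀.ker := fun r hr => MonoidHom.mem_ker.2 (hR1 r hr)
  let ρ : Representation (ZMod p) (G ⧸ R) (Additive (↥R ⧸ frattini ↥R)) :=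
    QuotientGroup.lift R ρ₀ hker
  have hρmk : ∀ g : G, ρ (QuotientGroup.mk g) = ρ₀ g := fun _ => rfl
  have hinj : Function.Injective ρ := by
    rw [injective_iff_map_eq_one]
    intro x hx
    obtain ⟨g, rfl⟩ := QuotientGroup.mk_surjective x
    rw [hρmk, ← hρ₀one] at hx
    exact (QuotientGroup.eq_one_iff g).2 (hfaith g hx)
  have hB' : IsPGroup p (B.map (QuotientGroup.mk' R)) := hB.map _
  have hcomm : ⁅B.map (QuotientGroup.mk' R), B.map (QuotientGroup.mk' R)⁆ =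
      (⁅B, B⁆).map (QuotientGroup.mk' R) := (Subgroup.map_commutator B B _).symm
  have hQ1 : ∀ a ∈ ⁅B.map (QuotientGroup.mk' R), B.map (QuotientGroup.mk' R)⁆,
      ∀ a' ∈ ⁅B.map (QuotientGroup.mk' R), B.map (QuotientGroup.mk' R)⁆,
      (ρ a - 1) * (ρ a' - 1) = 0 := by
    intro a ha a' ha'
    rw [hcomm] at ha ha'
    obtain ⟨a₀, ha₀, rfl⟩ := Subgroup.mem_map.1 ha
    obtain ⟨a₁, ha₁, rfl⟩ := Subgroup.mem_map.1 ha'
    apply LinearMap.ext
    intro v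
    obtain ⟨r, rfl⟩ := hsurj v
    obtain ⟨c, hc1, hc2⟩ := hstep a₁ r
    obtain ⟨c', hc'1, hc'2⟩ := hstep a₀ c
    have e1 : ρ ((QuotientGroup.mk' R) a₀) = ρ₀ a₀ := rfl
    have e2 : ρ ((QuotientGroup.mk' R) a₁) = ρ₀ a₁ := rfl
    rw [e1, e2, Module.End.mul_apply, hc2, hc'2, LinearMap.zero_apply]
    apply hzero
    rw [hc'1]
    have hcA : (c : G) ∈ ⁅B, B⁆ := by
      rw [hc1]; exact hAR a₁ ha₁ r r.2
    rw [hAab a₀ ha₀ c hcA]
    group
  have hQ2 : ∀ a ∈ ⁅B.map (QuotientGroup.mk' R), B.map (QuotientGroup.mk' R)⁆,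
      ∀ b₁ ∈ B.map (QuotientGroup.mk' R), ∀ b₂ ∈ B.map (QuotientGroup.mk' R),
      (ρ a - 1) * (ρ b₁ - 1) * (ρ b₂ - 1) = 0 := by
    intro a ha b₁ hb₁ b₂ hb₂
    rw [hcomm] at ha
    obtain ⟨a₀, ha₀, rfl⟩ := Subgroup.mem_map.1 ha
    obtain ⟨x₁, hx₁, rfl⟩ := Subgroup.mem_map.1 hb₁
    obtain ⟨x₂, hx₂, rfl⟩ := Subgroup.mem_map.1 hb₂
    apply LinearMap.ext
    intro v
    obtain ⟨r, rfl⟩ := hsurj v
    obtain ⟨c₂, hc21, hc22⟩ := hstep x₂ r
    obtain ⟨c₁, hc11, hc12⟩ := hstep x₁ c₂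
    obtain ⟨c₀, hc01, hc02⟩ := hstep a₀ c₁
    have e0 : ρ ((QuotientGroup.mk' R) a₀) = ρ₀ a₀ := rfl
    have e1 : ρ ((QuotientGroup.mk' R) x₁) = ρ₀ x₁ := rfl
    have e2 : ρ ((QuotientGroup.mk' R) x₂) = ρ₀ x₂ := rfl
    rw [e0, e1, e2, Module.End.mul_apply, Module.End.mul_apply, hc22, hc12, hc02,
      LinearMap.zero_apply]
    apply hzero
    rw [hc01]
    have hc2B : (c₂ : G) ∈ B := by
      rw [hc21]; exact hBR x₂ hx₂ r r.2
    have hc1A : (c₁ : G) ∈ ⁅B, B⁆ := by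
      rw [hc11]
      have h1 := Subgroup.commutator_mem_commutator hx₁ hc2B
      rw [commutatorElement_def] at h1
      exact h1
    rw [hAab a₀ ha₀ c₁ hc1A]
    group
  have key := hM (p := p) (F := ZMod p) (H := G ⧸ R) (V := Additive (↥R ⧸ frattini ↥R)) ρ
    (B.map (QuotientGroup.mk' R)) hp2 hsol hcore hinj hB' hQ1 hQ2
  intro a ha
  have h1 : (QuotientGroup.mk' R) a ∈ (⁅B, B⁆).map (QuotientGroup.mk' R) :=
    Subgroup.mem_map_of_mem _ ha
  rw [← hcomm, key, Subgroup.mem_bot] at h1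
  exact (QuotientGroup.eq_one_iff a).1 h1

/-- Package (P10) of S3789. -/
theorem lemKey (hM : LemMod.{u, u, 0}) : LemKey.{u} := by
  intro p _ G _ _ hp2 hsol h0 P d hd
  have hl := Cfsg.Agent.Lib.Helper63.exists_plengthLE_of_isPSolvable hsol
  have hRP : Cfsg.pCore p G ≤ (P : Subgroup G) := Cfsg.Agent.Lib.Helper63.pCore_le_sylow' p P
  have hcent := Cfsg.Agent.Lib.Helper63.centralizer_pCore_le h0 hl
  cases d with
  | zero =>
    rw [derivedSeries_zero]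
    intro x hx
    obtain ⟨y, -, rfl⟩ := Subgroup.mem_map.1 hx
    apply hcent
    rw [Subgroup.mem_centralizer_iff]
    intro h hh
    have h1 : ⁅(⟨h, hRP hh⟩ : ↥(P : Subgroup G)), y⁆ ∈ derivedSeries ↥(P : Subgroup G) 1 := by
      rw [derivedSeries_succ, derivedSeries_zero]
      exact Subgroup.commutator_mem_commutator (Subgroup.mem_top _) (Subgroup.mem_top _)
    rw [hd, Subgroup.mem_bot, commutatorElement_eq_one_iff_mul_comm] at h1
    exact congrArg Subtype.val h1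
  | succ d =>
    obtain ⟨B, hBdef⟩ : ∃ B : Subgroup G,
        B = (derivedSeries ↥(P : Subgroup G) d).map (P : Subgroup G).subtype := ⟨_, rfl⟩
    have hA : (derivedSeries ↥(P : Subgroup G) (d + 1)).map (P : Subgroup G).subtype = ⁅B, B⁆ := by
      rw [derivedSeries_succ, Subgroup.map_commutator, hBdef]
    have hBp : IsPGroup p B := by
      rw [hBdef]
      exact (P.isPGroup'.to_subgroup _).map _
    have hnorm : ∀ (n : ℕ), ∀ b ∈ (derivedSeries ↥(P : Subgroup G) n).map (P : Subgroup G).subtype,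
        ∀ r ∈ Cfsg.pCore p G, b * r * b⁻¹ * r⁻¹ ∈
          (derivedSeries ↥(P : Subgroup G) n).map (P : Subgroup G).subtype := by
      intro n b hb r hr
      obtain ⟨b', hb', rfl⟩ := Subgroup.mem_map.1 hb
      have hN : (derivedSeries ↥(P : Subgroup G) n).Normal := inferInstance
      have h1 : b' * (⟨r, hRP hr⟩ * b'⁻¹ * (⟨r, hRP hr⟩ : ↥(P : Subgroup G))⁻¹) ∈
          derivedSeries ↥(P : Subgroup G) n :=
        Subgroup.mul_mem _ hb' (hN.conj_mem _ (Subgroup.inv_mem _ hb') _)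
      refine Subgroup.mem_map.2 ⟨_, h1, ?_⟩
      simp only [Subgroup.coe_subtype, Subgroup.coe_mul, Subgroup.coe_inv]
      group
    have hBR : ∀ b ∈ B, ∀ r ∈ Cfsg.pCore p G, b * r * b⁻¹ * r⁻¹ ∈ B := by
      rw [hBdef]; exact hnorm d
    have hAR : ∀ a ∈ ⁅B, B⁆, ∀ r ∈ Cfsg.pCore p G, a * r * a⁻¹ * r⁻¹ ∈ ⁅B, B⁆ := by
      rw [← hA]; exact hnorm (d + 1)
    have hAab : ∀ a ∈ ⁅B, B⁆, ∀ a' ∈ ⁅B, B⁆, a * a' = a' * a := by
      rw [← hA]
      intro a ha a' ha'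
      obtain ⟨x, hx, rfl⟩ := Subgroup.mem_map.1 ha
      obtain ⟨y, hy, rfl⟩ := Subgroup.mem_map.1 ha'
      have h1 : ⁅x, y⁆ ∈ derivedSeries ↥(P : Subgroup G) (d + 1 + 1) := by
        rw [derivedSeries_succ]
        exact Subgroup.commutator_mem_commutator hx hy
      rw [hd, Subgroup.mem_bot, commutatorElement_eq_one_iff_mul_comm] at h1
      exact congrArg Subtype.val h1
    have hsol' : Cfsg.IsPSolvable p (G ⧸ Cfsg.pCore p G) :=
      Cfsg.Agent.Lib.Helper69.isPSolvable_of_surj p (QuotientGroup.mk' (Cfsg.pCore p G))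
        (QuotientGroup.mk'_surjective _) hsol
    have hcore : Cfsg.pCore p (G ⧸ Cfsg.pCore p G) = ⊥ :=
      hh89_pCore_quot_eq_bot p (Cfsg.pCore p G) rfl
    rw [hA]
    exact hh89_comm_le hM hp2 (Cfsg.pCore p G) (Cfsg.Agent.Lib.Helper63.pCore_isPGroup' p G)
      hsol' hcore
      (fun g hg => Cfsg.Agent.Lib.Helper63.mem_pCore_of_trivial_on_frattini h0 hl g hg)
      B hBp hBR hAR hAab

end Cfsg.Agent.Lib.Helper50.HH89
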